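import Mathlib

/-!
# A quadratic element of order three acting on a 2-group: the combinatorial core

`klein_units`: in a ring where `2` is regular and `1 + X + X² = 0`, three commuting units `A, B, D`
permuted cyclically by `X` and with equal squares coincide.

`beta_trivial`: a bimultiplicative sign form on a group `T` with a fixed-point-free twist `tw` of order three,
anisotropic modulo its radical and invariant under a group `B` having `x` as a central element of its
derived group, vanishes.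
-/

set_option autoImplicit false

namespace Cfsg.Agent.Lib.QuadK

open Subgroup
open scoped commutatorElement

section Ring
variable {R : Type*} [Ring R]

theorem klein_half (x u v w : R) (two : ∀ r : R, r + r = 0 → r = 0)
    (hx : 1 + x + x * x = 0) (xu : x * u = v * x) (xw : x * w = u * x)
    (uu : u * u = 1) (vv : v * v = 1) (uv : u * v = v * u) (hw : w = u * v) :
    (1 - u) * (1 + v) = 0 := by
  set a := (1 - u) * (1 + v) with ha
  have hua : u * a = -a := by
    rw [ha, ← mul_assoc, mul_sub, mul_one, uu]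
    noncomm_ring
  have hva : v * a = a := by
    rw [ha]
    have h1 : v * ((1 - u) * (1 + v)) = (1 - u) * (v * (1 + v)) := by
      rw [← mul_assoc, ← mul_assoc]
      congr 1
      rw [mul_sub, sub_mul, mul_one, one_mul, uv]
    rw [h1, mul_add, vv, mul_one, add_comm]
  have hwa : w * a = -a := by
    rw [hw, mul_assoc, hva, hua]
  have h1 : (1 + v) * (x * a) = 0 := by
    have : v * (x * a) = -(x * a) := by
      rw [← mul_assoc, ← xu, mul_assoc, hua, mul_neg]
    rw [add_mul, one_mul, this, add_neg_cancel]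
  have h2 : (1 + v) * (x * x * a) = 0 := by
    have : v * (x * x * a) = -(x * x * a) := by
      calc v * (x * x * a) = (v * x) * (x * a) := by simp only [mul_assoc]
        _ = x * (u * x) * a := by rw [← xu]; simp only [mul_assoc]
        _ = x * (x * w) * a := by rw [← xw]
        _ = x * x * (w * a) := by simp only [mul_assoc]
        _ = -(x * x * a) := by rw [hwa, mul_neg]
    rw [add_mul, one_mul, this, add_neg_cancel]
  have h3 : (1 + v) * ((1 + x + x * x) * a) = a + a := by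
    have e : (1 + x + x * x) * a = a + x * a + x * x * a := by noncomm_ring
    rw [e, mul_add, mul_add, h1, h2, add_zero, add_zero, add_mul, one_mul, hva]
  rw [hx, zero_mul, mul_zero] at h3
  exact two a h3.symm

theorem klein_ring (x u v w : R) (two : ∀ r : R, r + r = 0 → r = 0)
    (hx : 1 + x + x * x = 0) (xu : x * u = v * x) (xv : x * v = w * x) (xw : x * w = u * x)
    (uu : u * u = 1) (vv : v * v = 1) (uv : u * v = v * u) (hw : w = u * v) : u = 1 := by
  have h1 := klein_half x u v w two hx xu xw uu vv uv hw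
  have hww : w * w = 1 := by
    rw [hw]
    calc u * v * (u * v) = u * (v * u) * v := by simp only [mul_assoc]
      _ = u * (u * v) * v := by rw [uv]
      _ = (u * u) * (v * v) := by simp only [mul_assoc]
      _ = 1 := by rw [uu, vv, mul_one]
  have hvw : v * w = w * v := by
    rw [hw]
    calc v * (u * v) = (v * u) * v := by rw [mul_assoc]
      _ = (u * v) * v := by rw [uv]
  have hu : u = v * w := by
    rw [hw]
    calc u = u * (v * v) := by rw [vv, mul_one]
      _ = (u * v) * v := by rw [mul_assoc]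
      _ = (v * u) * v := by rw [uv]
      _ = v * (u * v) := by rw [mul_assoc]
  have h2 := klein_half x v w u two hx xv xu vv hww hvw hu
  have e : (1 - v) * (1 + w) = (1 - u) * (1 - v) := by
    have e1 : v * (u * v) = u := by rw [← hw]; exact hu.symm
    rw [hw]
    calc (1 - v) * (1 + u * v) = 1 + u * v - v - v * (u * v) := by noncomm_ring
      _ = 1 + u * v - v - u := by rw [e1]
      _ = (1 - u) * (1 - v) := by noncomm_ring
  rw [e] at h2
  have h3 : (1 - u) + (1 - u) = 0 := by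
    have : (1 - u) + (1 - u) = (1 - u) * (1 + v) + (1 - u) * (1 - v) := by noncomm_ring
    rw [this, h1, h2, add_zero]
  have h4 := two _ h3
  exact (sub_eq_zero.mp h4).symm

/-- Three commuting units permuted by `X`, with the same square. -/
theorem klein_units (X A B D : Rˣ) (two : ∀ r : R, r + r = 0 → r = 0)
    (hx : 1 + (X : R) + X * X = 0) (xa : X * A = B * X) (xb : X * B = D * X) (xd : X * D = A * X)
    (ab : A * B = B * A) (bd : B * D = D * B) (da : D * A = A * D)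
    (sq1 : A * A = B * B) (sq2 : B * B = D * D) : A = B := by
  have hBA : B⁻¹ * A = A * B⁻¹ := by
    rw [inv_mul_eq_iff_eq_mul, ← mul_assoc, ← ab, mul_assoc, mul_inv_cancel, mul_one]
  have hDB : D⁻¹ * B = B * D⁻¹ := by
    rw [inv_mul_eq_iff_eq_mul, ← mul_assoc, ← bd, mul_assoc, mul_inv_cancel, mul_one]
  have hAD : A⁻¹ * D = D * A⁻¹ := by
    rw [inv_mul_eq_iff_eq_mul, ← mul_assoc, ← da, mul_assoc, mul_inv_cancel, mul_one]
  have hDA : D⁻¹ * A = A * D⁻¹ := by
    rw [inv_mul_eq_iff_eq_mul, ← mul_assoc, da, mul_assoc, mul_inv_cancel, mul_one]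
  have hBD : B⁻¹ * D = D * B⁻¹ := by
    rw [inv_mul_eq_iff_eq_mul, ← mul_assoc, bd, mul_assoc, mul_inv_cancel, mul_one]
  obtain ⟨u, hu⟩ : ∃ u, u = A * B⁻¹ := ⟨_, rfl⟩
  obtain ⟨v, hv⟩ : ∃ v, v = B * D⁻¹ := ⟨_, rfl⟩
  obtain ⟨w, hw⟩ : ∃ w, w = D * A⁻¹ := ⟨_, rfl⟩
  have uu : u * u = 1 := by
    calc u * u = A * (B⁻¹ * A) * B⁻¹ := by simp only [hu, mul_assoc]
      _ = (A * A) * (B⁻¹ * B⁻¹) := by rw [hBA]; simp only [mul_assoc]
      _ = 1 := by rw [sq1]; group
  have vv : v * v = 1 := by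
    calc v * v = B * (D⁻¹ * B) * D⁻¹ := by simp only [hv, mul_assoc]
      _ = (B * B) * (D⁻¹ * D⁻¹) := by rw [hDB]; simp only [mul_assoc]
      _ = 1 := by rw [sq2]; group
  have ww : w * w = 1 := by
    calc w * w = D * (A⁻¹ * D) * A⁻¹ := by simp only [hw, mul_assoc]
      _ = (D * D) * (A⁻¹ * A⁻¹) := by rw [hAD]; simp only [mul_assoc]
      _ = 1 := by rw [← sq2, ← sq1]; group
  have uv : u * v = v * u := by
    have e1 : u * v = A * D⁻¹ := by rw [hu, hv]; group
    have e2 : v * u = A * D⁻¹ := by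
      calc v * u = B * (D⁻¹ * A) * B⁻¹ := by simp only [hv, hu, mul_assoc]
        _ = (B * A) * (D⁻¹ * B⁻¹) := by rw [hDA]; simp only [mul_assoc]
        _ = (A * B) * (D⁻¹ * B⁻¹) := by rw [ab]
        _ = A * (B * D⁻¹) * B⁻¹ := by simp only [mul_assoc]
        _ = A * (D⁻¹ * B) * B⁻¹ := by rw [hDB]
        _ = A * D⁻¹ := by group
    rw [e1, e2]
  have huvw : u * v * w = 1 := by rw [hu, hv, hw]; group
  have hwuv : w = u * v := by
    rw [eq_inv_of_mul_eq_one_left huvw, inv_eq_of_mul_eq_one_right ww]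
  have xu : X * u = v * X := by
    have hXB : X * B⁻¹ = D⁻¹ * X := by
      rw [mul_inv_eq_iff_eq_mul, mul_assoc, xb, ← mul_assoc, inv_mul_cancel, one_mul]
    rw [hu, hv, ← mul_assoc, xa, mul_assoc, hXB, mul_assoc]
  have xv : X * v = w * X := by
    have hXD : X * D⁻¹ = A⁻¹ * X := by
      rw [mul_inv_eq_iff_eq_mul, mul_assoc, xd, ← mul_assoc, inv_mul_cancel, one_mul]
    rw [hv, hw, ← mul_assoc, xb, mul_assoc, hXD, mul_assoc]
  have xw : X * w = u * X := by
    have hXA : X * A⁻¹ = B⁻¹ * X := by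
      rw [mul_inv_eq_iff_eq_mul, mul_assoc, xa, ← mul_assoc, inv_mul_cancel, one_mul]
    rw [hw, hu, ← mul_assoc, xd, mul_assoc, hXA, mul_assoc]
  have hmain : (u : R) = 1 := by
    apply klein_ring (X : R) (u : R) (v : R) (w : R) two hx
    · rw [← Units.val_mul, ← Units.val_mul, xu]
    · rw [← Units.val_mul, ← Units.val_mul, xv]
    · rw [← Units.val_mul, ← Units.val_mul, xw]
    · rw [← Units.val_mul, uu, Units.val_one]
    · rw [← Units.val_mul, vv, Units.val_one]
    · rw [← Units.val_mul, ← Units.val_mul, uv]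
    · rw [hwuv, Units.val_mul]
  have hu1 : u = 1 := Units.ext hmain
  rw [hu] at hu1
  exact mul_inv_eq_one.mp hu1

end Ring

section Beta

variable {H : Type*} [Group H]

theorem unit_inv (u : ℤˣ) : u⁻¹ = u := Int.units_inv_eq_self u

theorem unit_sq (u : ℤˣ) : u * u = 1 := Int.units_mul_self u

/-- The combinatorial heart. -/
theorem beta_trivial (T B : Subgroup H) (x : H) (β : H → H → ℤˣ)
    (hTx : ∀ t ∈ T, x * t * x⁻¹ ∈ T) (hx3 : x ^ 3 = 1)
    (b1 : ∀ a ∈ T, ∀ b ∈ T, ∀ c ∈ T, β (a * b) c = β a c * β b c)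
    (b2 : ∀ a ∈ T, ∀ b ∈ T, ∀ c ∈ T, β a (b * c) = β a b * β a c)
    (b3 : ∀ a ∈ T, β a a = 1)
    (b4 : ∀ a ∈ T, ∀ b ∈ T, β (x * a * x⁻¹) (x * b * x⁻¹) = β a b)
    (hgen : T ≤ closure {c | ∃ s ∈ T, c = s * (x * s * x⁻¹)⁻¹})
    (aniso : ∀ t ∈ T, β t (x * t * x⁻¹) = 1 → ∀ s ∈ T, β (x * t * x⁻¹) s = β t s)
    (hBT : ∀ a ∈ B, ∀ t ∈ T, a * t * a⁻¹ ∈ T)
    (b7 : ∀ a ∈ B, ∀ t ∈ T, ∀ s ∈ T, β (a * t * a⁻¹) (a * s * a⁻¹) = β t s)
    (hxB : x ∈ ⁅B, B⁆) (hxc : ∀ a ∈ B, x * a = a * x) :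
    ∀ t ∈ T, ∀ s ∈ T, β t s = 1 := by
  classical
  have hxBm : x ∈ B := by
    have : ⁅B, B⁆ ≤ B := Subgroup.commutator_le.mpr
      (fun a ha b hb => B.mul_mem (B.mul_mem (B.mul_mem ha hb) (B.inv_mem ha)) (B.inv_mem hb))
    exact this hxB
  -- the twist
  let tw : H → H := fun t => x * t * x⁻¹
  have htw : ∀ t, tw t = x * t * x⁻¹ := fun _ => rfl
  have hT1 : ∀ t ∈ T, tw t ∈ T := hTx
  have htw3 : ∀ t, tw (tw (tw t)) = t := by
    intro t
    have h : x * x * x = 1 := by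
      rw [← hx3, pow_succ, pow_two]
    have h' : x⁻¹ * x⁻¹ * x⁻¹ = 1 := by
      have : (x * x * x)⁻¹ = 1 := by rw [h, inv_one]
      rw [← this]; group
    calc tw (tw (tw t)) = (x * x * x) * t * (x⁻¹ * x⁻¹ * x⁻¹) := by simp only [htw]; group
      _ = t := by rw [h, h']; group
  have b4' : ∀ a ∈ T, ∀ b ∈ T, β (tw a) (tw b) = β a b := b4
  -- basic sign calculus
  have bone : ∀ a ∈ T, β a 1 = 1 := by
    intro a ha
    have h := b2 a ha 1 T.one_mem 1 T.one_mem
    rw [mul_one] at h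
    have h2 := unit_sq (β a 1)
    rw [← h] at h2
    exact h2
  have binv : ∀ a ∈ T, ∀ b ∈ T, β a b⁻¹ = β a b := by
    intro a ha b hb
    have h := b2 a ha b hb b⁻¹ (T.inv_mem hb)
    rw [mul_inv_cancel, bone a ha] at h
    have h2 := unit_sq (β a b)
    calc β a b⁻¹ = β a b * (β a b * β a b⁻¹) := by rw [← mul_assoc, h2, one_mul]
      _ = β a b := by rw [← h, mul_one]
  have bsym : ∀ a ∈ T, ∀ b ∈ T, β b a = β a b := by
    intro a ha b hb
    have h := b3 (a * b) (T.mul_mem ha hb)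
    rw [b1 a ha b hb _ (T.mul_mem ha hb), b2 a ha a ha b hb, b2 b hb a ha b hb, b3 a ha, b3 b hb,
      one_mul, mul_one] at h
    have h2 := unit_sq (β a b)
    calc β b a = (β a b * β a b) * β b a := by rw [h2, one_mul]
      _ = β a b * (β a b * β b a) := by rw [mul_assoc]
      _ = β a b := by rw [h, mul_one]
  -- the relation `1 + x + x² = 0` on the form
  have hsig : ∀ t ∈ T, ∀ s ∈ T, β t s * β t (tw s) * β t (tw (tw s)) = 1 := by
    intro t ht
    have hcl : ∀ c ∈ closure {c | ∃ s ∈ T, c = s * (x * s * x⁻¹)⁻¹},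
        c ∈ T ∧ β t c * β t (tw c) * β t (tw (tw c)) = 1 := by
      intro c hc
      induction hc using Subgroup.closure_induction with
      | mem c hc =>
        obtain ⟨a, ha, rfl⟩ := hc
        have ha1 := hT1 a ha
        have ha2 := hT1 _ ha1
        have ha3 := hT1 _ ha2
        refine ⟨T.mul_mem ha (T.inv_mem ha1), ?_⟩
        have e1 : tw (a * (x * a * x⁻¹)⁻¹) = tw a * (tw (tw a))⁻¹ := by
          simp only [htw]; group
        have e2 : tw (tw (a * (x * a * x⁻¹)⁻¹)) = tw (tw a) * (tw (tw (tw a)))⁻¹ := by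
          simp only [htw]; group
        rw [e2, e1, htw3]
        have e0 : a * (x * a * x⁻¹)⁻¹ = a * (tw a)⁻¹ := rfl
        rw [e0, b2 t ht a ha _ (T.inv_mem ha1), b2 t ht _ ha1 _ (T.inv_mem ha2),
          b2 t ht _ ha2 _ (T.inv_mem ha), binv t ht _ ha1, binv t ht _ ha2, binv t ht _ ha]
        generalize β t a = p
        generalize β t (tw a) = q
        generalize β t (tw (tw a)) = r
        have h1 := unit_sq p
        have h2 := unit_sq q
        have h3 := unit_sq r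
        calc p * q * (q * r) * (r * p) = (p * p) * (q * q) * (r * r) := by
              simp only [mul_comm, mul_left_comm, mul_assoc]
          _ = 1 := by rw [h1, h2, h3]; rfl
      | one =>
        refine ⟨T.one_mem, ?_⟩
        have e1 : tw 1 = 1 := by simp [htw]
        rw [e1, e1, bone t ht]
        rfl
      | mul a b _ _ iha ihb =>
        obtain ⟨haT, iha⟩ := iha
        obtain ⟨hbT, ihb⟩ := ihb
        refine ⟨T.mul_mem haT hbT, ?_⟩
        have e1 : tw (a * b) = tw a * tw b := by simp only [htw]; group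
        have e2 : tw (tw (a * b)) = tw (tw a) * tw (tw b) := by simp only [htw]; group
        rw [e2, e1, b2 t ht a haT b hbT, b2 t ht _ (hT1 a haT) _ (hT1 b hbT),
          b2 t ht _ (hT1 _ (hT1 a haT)) _ (hT1 _ (hT1 b hbT))]
        calc β t a * β t b * (β t (tw a) * β t (tw b)) * (β t (tw (tw a)) * β t (tw (tw b)))
            = (β t a * β t (tw a) * β t (tw (tw a))) * (β t b * β t (tw b) * β t (tw (tw b))) := by
              simp only [mul_comm, mul_left_comm, mul_assoc]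
          _ = 1 := by rw [iha, ihb, one_mul]
      | inv a _ iha =>
        obtain ⟨haT, iha⟩ := iha
        refine ⟨T.inv_mem haT, ?_⟩
        have e1 : tw a⁻¹ = (tw a)⁻¹ := by simp only [htw]; group
        have e2 : tw (tw a⁻¹) = (tw (tw a))⁻¹ := by
          simp only [htw, mul_inv_rev, inv_inv, mul_assoc]
        rw [e2, e1, binv t ht a haT, binv t ht _ (hT1 a haT), binv t ht _ (hT1 _ (hT1 a haT))]
        exact iha
    intro s hs
    exact (hcl s (hgen hs)).2
  have bshift : ∀ a ∈ T, ∀ s ∈ T, β (tw a) s = β a (tw (tw s)) := by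
    intro a ha s hs
    have := b4' a ha (tw (tw s)) (hT1 _ (hT1 s hs))
    rwa [htw3] at this
  have hqq : ∀ t ∈ T, ∀ s ∈ T, β (t * s) (tw (t * s)) = β t (tw t) * β s (tw s) * β t s := by
    intro t ht s hs
    have e : tw (t * s) = tw t * tw s := by simp only [htw]; group
    rw [e, b1 t ht s hs _ (T.mul_mem (hT1 t ht) (hT1 s hs)), b2 t ht _ (hT1 t ht) _ (hT1 s hs),
      b2 s hs _ (hT1 t ht) _ (hT1 s hs)]
    have h1 : β s (tw t) = β t (tw (tw s)) := by
      rw [← bsym s hs (tw t) (hT1 t ht), bshift t ht s hs]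
    rw [h1]
    have h2 := hsig t ht s hs
    generalize β t (tw t) = p at *
    generalize β t (tw s) = a at *
    generalize β t (tw (tw s)) = b at *
    generalize β s (tw s) = r at *
    generalize β t s = c at *
    have h3 : a * b = c := by
      calc a * b = (c * c) * (a * b) := by rw [unit_sq c, one_mul]
        _ = c * (c * a * b) := by simp only [mul_assoc]
        _ = c := by rw [h2, mul_one]
    calc p * a * (b * r) = p * (a * b) * r := by simp only [mul_assoc]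
      _ = p * r * c := by rw [h3]; simp only [mul_comm, mul_left_comm, mul_assoc]
  -- a class equal to its twist is in the radical
  have hcube : ∀ t ∈ T, (∀ s ∈ T, β (tw t) s = β t s) → ∀ s ∈ T, β t s = 1 := by
    intro t ht h1 s hs
    have h2 : β (tw (tw t)) s = β t s := by
      rw [bshift _ (hT1 t ht) s hs, h1 _ (hT1 _ (hT1 s hs)), ← bshift t ht s hs, h1 s hs]
    have h3 := hsig s hs t ht
    have e1 : β s t = β t s := bsym t ht s hs
    have e2 : β s (tw t) = β t s := by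
      rw [← bsym s hs (tw t) (hT1 t ht)]; exact h1 s hs
    have e3 : β s (tw (tw t)) = β t s := by
      rw [← bsym s hs (tw (tw t)) (hT1 _ (hT1 t ht))]; exact h2
    rw [e1, e2, e3, unit_sq, one_mul] at h3
    exact h3
  have neg_ne : (-1 : ℤˣ) ≠ 1 := by decide
  have hqneg : ∀ t ∈ T, (¬ ∀ s ∈ T, β t s = 1) → β t (tw t) = -1 := by
    intro t ht hR
    rcases Int.units_eq_one_or (β t (tw t)) with h | h
    · exact absurd (hcube t ht (aniso t ht h)) hR
    · exact h
  have hF : ∀ a ∈ T, ∀ b ∈ T, (¬ ∀ s ∈ T, β a s = 1) → (¬ ∀ s ∈ T, β b s = 1) →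
      (¬ ∀ s ∈ T, β (a * b) s = 1) → β a b = -1 := by
    intro a ha b hb h1 h2 h3
    have h4 := hqq a ha b hb
    rw [hqneg _ (T.mul_mem ha hb) h3, hqneg a ha h1, hqneg b hb h2] at h4
    have e : (-1 : ℤˣ) * -1 = 1 := by decide
    rw [e, one_mul] at h4
    exact h4.symm
  have hRtw : ∀ a ∈ T, (∀ s ∈ T, β (tw a) s = 1) → ∀ s ∈ T, β a s = 1 := by
    intro a ha h s hs
    rw [← b4' a ha s hs]
    exact h _ (hT1 s hs)
  intro t₀ ht₀ s₀ hs₀
  by_contra hne
  have hnR : ¬ ∀ s ∈ T, β t₀ s = 1 := fun h => hne (h s₀ hs₀)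
  obtain ⟨t, ht, hnRt⟩ : ∃ t, t ∈ T ∧ ¬ ∀ s ∈ T, β t s = 1 := ⟨t₀, ht₀, hnR⟩
  have ht1 := hT1 t ht
  have ht2 := hT1 _ ht1
  have hn1 : ¬ ∀ s ∈ T, β (tw t) s = 1 := fun h => hnRt (hRtw t ht h)
  have hn2 : ¬ ∀ s ∈ T, β (tw (tw t)) s = 1 := fun h => hn1 (hRtw _ ht1 h)
  have hsim : ∀ a ∈ T, ∀ b ∈ T, (∀ s ∈ T, β (a * b) s = 1) → ∀ s ∈ T, β b s = β a s := by
    intro a ha b hb h s hs
    have h1 := h s hs
    rw [b1 a ha b hb s hs] at h1
    calc β b s = (β a s * β a s) * β b s := by rw [unit_sq, one_mul]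
      _ = β a s * (β a s * β b s) := by rw [mul_assoc]
      _ = β a s := by rw [h1, mul_one]
  have hrank : ∀ s ∈ T, (∀ u ∈ T, β s u = 1) ∨ (∀ u ∈ T, β s u = β t u) ∨
      (∀ u ∈ T, β s u = β (tw t) u) ∨ (∀ u ∈ T, β s u = β (tw (tw t)) u) := by
    intro s hs
    by_contra hcon
    push Not at hcon
    obtain ⟨c0, c1, c2, c3⟩ := hcon
    have hnS : ¬ ∀ u ∈ T, β s u = 1 := by
      obtain ⟨u, hu, hu1⟩ := c0
      exact fun h => hu1 (h u hu)
    have key : ∀ a ∈ T, (¬ ∀ u ∈ T, β a u = 1) → (∃ u ∈ T, β s u ≠ β a u) → β a s = -1 := by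
      intro a ha hna hd
      apply hF a ha s hs hna hnS
      intro h
      obtain ⟨u, hu, hu1⟩ := hd
      exact hu1 (hsim a ha s hs h u hu)
    have k1 := key t ht hnRt c1
    have k2 := key _ ht1 hn1 c2
    have k3 := key _ ht2 hn2 c3
    have h3 := hsig s hs t ht
    rw [bsym t ht s hs, bsym (tw t) ht1 s hs, bsym (tw (tw t)) ht2 s hs, k1, k2, k3] at h3
    exact neg_ne (by simpa using h3)
  -- the stabilizer of the class of `t`
  have hBinv : ∀ a ∈ B, ∀ s ∈ T, a⁻¹ * s * a ∈ T := by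
    intro a ha s hs
    have := hBT a⁻¹ (B.inv_mem ha) s hs
    simpa using this
  let B₀ : Subgroup H :=
    { carrier := {a | a ∈ B ∧ ∀ s ∈ T, β (a * t * a⁻¹) s = β t s}
      one_mem' := ⟨B.one_mem, fun s _ => by simp⟩
      mul_mem' := by
        rintro a b ⟨ha, ha2⟩ ⟨hb, hb2⟩
        refine ⟨B.mul_mem ha hb, fun s hs => ?_⟩
        have hb1 := hBT b hb t ht
        have hsa := hBinv a ha s hs
        have e1 : a * b * t * (a * b)⁻¹ = a * (b * t * b⁻¹) * a⁻¹ := by group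
        have e3 : a * (a⁻¹ * s * a) * a⁻¹ = s := by group
        have e2 := b7 a ha _ hb1 _ hsa
        rw [e3] at e2
        have e4 := b7 a ha _ ht _ hsa
        rw [e3] at e4
        rw [e1, e2, hb2 _ hsa, ← e4, ha2 s hs]
      inv_mem' := by
        rintro a ⟨ha, ha2⟩
        refine ⟨B.inv_mem ha, fun s hs => ?_⟩
        have hsa := hBT a ha s hs
        have e1 : a * (a⁻¹ * t * a⁻¹⁻¹) * a⁻¹ = t := by group
        have e2 := b7 a ha _ (hBT a⁻¹ (B.inv_mem ha) t ht) s hs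
        rw [e1] at e2
        rw [← e2, ← ha2 _ hsa, b7 a ha t ht s hs] }
  have hB₀ : ∀ a, a ∈ B₀ ↔ a ∈ B ∧ ∀ s ∈ T, β (a * t * a⁻¹) s = β t s := fun a => Iff.rfl
  -- shifting along elements of `B`
  have hshift : ∀ g ∈ B, ∀ a ∈ B, (∀ u ∈ T, β (a * t * a⁻¹) u = β (g * t * g⁻¹) u) → g⁻¹ * a ∈ B₀ := by
    intro g hg a ha h
    refine (hB₀ _).mpr ⟨B.mul_mem (B.inv_mem hg) ha, fun s hs => ?_⟩
    have hy := hBT a ha t ht
    have e1 : g⁻¹ * a * t * (g⁻¹ * a)⁻¹ = g⁻¹ * (a * t * a⁻¹) * g := by group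
    have e2 := b7 g hg _ (hBinv g hg _ hy) s hs
    have e3 : g * (g⁻¹ * (a * t * a⁻¹) * g) * g⁻¹ = a * t * a⁻¹ := by group
    rw [e3] at e2
    rw [e1, ← e2, h _ (hBT g hg s hs), b7 g hg t ht s hs]
  have hdec : ∀ a ∈ B, ∃ g, (g = 1 ∨ g = x ∨ g = x * x) ∧ g⁻¹ * a ∈ B₀ := by
    intro a ha
    have hy := hBT a ha t ht
    rcases hrank _ hy with h | h | h | h
    · exfalso
      apply hnRt
      intro s hs
      rw [← b7 a ha t ht s hs]
      exact h _ (hBT a ha s hs)
    · refine ⟨1, Or.inl rfl, hshift 1 B.one_mem a ha ?_⟩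
      intro u hu
      rw [h u hu]
      simp
    · exact ⟨x, Or.inr (Or.inl rfl), hshift x hxBm a ha h⟩
    · refine ⟨x * x, Or.inr (Or.inr rfl), hshift (x * x) (B.mul_mem hxBm hxBm) a ha ?_⟩
      intro u hu
      rw [h u hu]
      have e : x * x * t * (x * x)⁻¹ = tw (tw t) := by simp only [htw]; group
      rw [e]
  have hgc : ∀ g, (g = 1 ∨ g = x ∨ g = x * x) → ∀ a ∈ B, Commute g a := by
    intro g hg a ha
    have h1 : Commute x a := hxc a ha
    rcases hg with rfl | rfl | rfl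
    · exact Commute.one_left a
    · exact h1
    · exact h1.mul_left h1
  have hgg : ∀ g h, (g = 1 ∨ g = x ∨ g = x * x) → (h = 1 ∨ h = x ∨ h = x * x) → Commute g h := by
    intro g h hg hh
    have h1 : Commute x x := Commute.refl x
    rcases hg with rfl | rfl | rfl <;> rcases hh with rfl | rfl | rfl <;>
      first
        | exact Commute.one_left _
        | exact Commute.one_right _
        | exact h1
        | exact h1.mul_left h1
        | exact h1.mul_right h1
        | exact (h1.mul_left h1).mul_right (h1.mul_left h1)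
  have hcomm : ∀ a ∈ B, ∀ b ∈ B, ⁅a, b⁆ ∈ B₀ := by
    intro a ha b hb
    obtain ⟨g, hg, hga⟩ := hdec a ha
    obtain ⟨h, hh, hhb⟩ := hdec b hb
    obtain ⟨a₀, ha₀⟩ : ∃ a₀, a₀ = g⁻¹ * a := ⟨_, rfl⟩
    obtain ⟨b₀, hb₀⟩ : ∃ b₀, b₀ = h⁻¹ * b := ⟨_, rfl⟩
    rw [← ha₀] at hga
    rw [← hb₀] at hhb
    have ea : a = g * a₀ := by rw [ha₀]; group
    have eb : b = h * b₀ := by rw [hb₀]; group
    have ha₀B : a₀ ∈ B := ((hB₀ _).mp hga).1
    have hb₀B : b₀ ∈ B := ((hB₀ _).mp hhb).1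
    have c1 := hgc g hg a₀ ha₀B
    have c2 := hgc g hg b₀ hb₀B
    have c3 := hgc h hh a₀ ha₀B
    have c4 := hgc h hh b₀ hb₀B
    have c5 := hgg g h hg hh
    have e : ⁅a, b⁆ = ⁅a₀, b₀⁆ := by
      have c6 : Commute g (a₀ * b₀ * a₀⁻¹) := (c1.mul_right c2).mul_right c1.inv_right
      have c7 : Commute h (a₀ * b₀ * a₀⁻¹ * b₀⁻¹) := ((c3.mul_right c4).mul_right c3.inv_right).mul_right c4.inv_right
      rw [ea, eb, commutatorElement_def, commutatorElement_def]
      calc g * a₀ * (h * b₀) * (g * a₀)⁻¹ * (h * b₀)⁻¹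
          = g * (a₀ * h) * b₀ * a₀⁻¹ * g⁻¹ * b₀⁻¹ * h⁻¹ := by group
        _ = (g * h) * (a₀ * b₀ * a₀⁻¹) * g⁻¹ * b₀⁻¹ * h⁻¹ := by rw [c3.eq.symm]; group
        _ = h * (g * (a₀ * b₀ * a₀⁻¹)) * g⁻¹ * b₀⁻¹ * h⁻¹ := by rw [c5.eq]; group
        _ = h * ((a₀ * b₀ * a₀⁻¹) * g) * g⁻¹ * b₀⁻¹ * h⁻¹ := by rw [c6.eq]
        _ = (h * (a₀ * b₀ * a₀⁻¹ * b₀⁻¹)) * h⁻¹ := by group
        _ = ((a₀ * b₀ * a₀⁻¹ * b₀⁻¹) * h) * h⁻¹ := by rw [c7.eq]
        _ = a₀ * b₀ * a₀⁻¹ * b₀⁻¹ := by group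
    rw [e]
    exact B₀.mul_mem (B₀.mul_mem (B₀.mul_mem hga hhb) (B₀.inv_mem hga)) (B₀.inv_mem hhb)
  have hle : ⁅B, B⁆ ≤ B₀ := Subgroup.commutator_le.mpr hcomm
  have hxB₀ := (hB₀ x).mp (hle hxB)
  exact hnRt (hcube t ht hxB₀.2)

end Beta

end Cfsg.Agent.Lib.QuadK
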