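import Mathlib
import Cfsg.Agent.Lib.QuadK.Beta

/-!
# A quadratic element of order three acting on a 2-group: the module part
-/

set_option autoImplicit false

namespace Cfsg.Agent.Lib.QuadK

open Subgroup
open scoped commutatorElement

variable {H : Type*} [Group H] {V : Type*} [AddCommGroup V] [Module (ZMod 3) V]

theorem three_v (y : V) : y + y + y = 0 := by
  have h : ((1 : ZMod 3) + 1 + 1) • y = 0 := by
    rw [show ((1 : ZMod 3) + 1 + 1) = 0 from by decide, zero_smul]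
  simpa [add_smul] using h

theorem two_v (y : V) (h : y + y = 0) : y = 0 := by
  have := three_v y
  rwa [h, zero_add] at this

theorem rho_mul (ρ : H →* Module.End (ZMod 3) V) (g h : H) (v : V) : ρ g (ρ h v) = ρ (g * h) v := by
  rw [map_mul]; rfl

/-- The stabilizer of a submodule. -/
def stW (ρ : H →* Module.End (ZMod 3) V) (W : Submodule (ZMod 3) V) : Subgroup H where
  carrier := {g | (∀ w ∈ W, ρ g w ∈ W) ∧ ∀ w ∈ W, ρ g⁻¹ w ∈ W}
  one_mem' := by
    constructor <;> intro w hw <;> simpa using hw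
  mul_mem' := by
    rintro a b ⟨ha, ha'⟩ ⟨hb, hb'⟩
    constructor
    · intro w hw
      rw [← rho_mul]
      exact ha _ (hb _ hw)
    · intro w hw
      rw [mul_inv_rev, ← rho_mul]
      exact hb' _ (ha' _ hw)
  inv_mem' := by
    rintro a ⟨ha, ha'⟩
    refine ⟨ha', fun w hw => ?_⟩
    rw [inv_inv]
    exact ha w hw

/-- The restriction to a stable submodule. -/
def rhoW (ρ : H →* Module.End (ZMod 3) V) (W : Submodule (ZMod 3) V) : stW ρ W →* Module.End (ZMod 3) W where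
  toFun g := (ρ g.1).restrict g.2.1
  map_one' := by
    apply LinearMap.ext
    intro w
    apply Subtype.ext
    simp
  map_mul' := by
    intro a b
    apply LinearMap.ext
    intro w
    apply Subtype.ext
    show ρ (a.1 * b.1) w = ρ a.1 (ρ b.1 w)
    rw [rho_mul]

theorem rhoW_apply (ρ : H →* Module.End (ZMod 3) V) (W : Submodule (ZMod 3) V) (g : stW ρ W) (w : W) :
    ((rhoW ρ W g w : W) : V) = ρ g.1 w := rfl

/-- The Klein-four argument on a stable submodule. -/
theorem klein_W (ρ : H →* Module.End (ZMod 3) V) (W : Submodule (ZMod 3) V) (a b d x : H)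
    (sa : a ∈ stW ρ W) (sb : b ∈ stW ρ W) (sd : d ∈ stW ρ W) (sx : x ∈ stW ρ W)
    (hX : ∀ w ∈ W, w + ρ x w + ρ x (ρ x w) = 0)
    (xa : x * a * x⁻¹ = b) (xb : x * b * x⁻¹ = d) (xd : x * d * x⁻¹ = a)
    (sq1 : a * a = b * b) (sq2 : b * b = d * d)
    (c1 : ∀ w ∈ W, ρ ⁅a, b⁆ w = w) (c2 : ∀ w ∈ W, ρ ⁅b, d⁆ w = w) (c3 : ∀ w ∈ W, ρ ⁅d, a⁆ w = w) :
    ∀ w ∈ W, ρ a w = ρ b w := by
  let ρU : stW ρ W →* (Module.End (ZMod 3) W)ˣ := MonoidHom.toHomUnits (rhoW ρ W)
  have hcoe : ∀ (g : stW ρ W) (w : W), (((ρU g : (Module.End (ZMod 3) W)ˣ) : Module.End (ZMod 3) W) w : V) = ρ g.1 w :=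
    fun g w => rfl
  let a' : stW ρ W := ⟨a, sa⟩
  let b' : stW ρ W := ⟨b, sb⟩
  let d' : stW ρ W := ⟨d, sd⟩
  let x' : stW ρ W := ⟨x, sx⟩
  have hcomm : ∀ u v : stW ρ W, (∀ w ∈ W, ρ ⁅u.1, v.1⁆ w = w) → ρU u * ρU v = ρU v * ρU u := by
    intro u v h
    have h1 : ρU ⁅u, v⁆ = 1 := by
      apply Units.ext
      apply LinearMap.ext
      intro w
      apply Subtype.ext
      show ρ (⁅u, v⁆ : stW ρ W).1 w = w
      exact h w w.2
    rw [map_commutatorElement, commutatorElement_eq_one_iff_mul_comm] at h1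
    exact h1
  have hconj : ∀ u v : stW ρ W, x * u.1 * x⁻¹ = v.1 → ρU x' * ρU u = ρU v * ρU x' := by
    intro u v h
    rw [← map_mul, ← map_mul]
    congr 1
    apply Subtype.ext
    show x * u.1 = v.1 * x
    rw [← h]
    group
  have hsq : ∀ u v : stW ρ W, u.1 * u.1 = v.1 * v.1 → ρU u * ρU u = ρU v * ρU v := by
    intro u v h
    rw [← map_mul, ← map_mul]
    congr 1
    apply Subtype.ext
    exact h
  have hmain := klein_units (R := Module.End (ZMod 3) W) (ρU x') (ρU a') (ρU b') (ρU d')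
    (by
      intro r hr
      apply LinearMap.ext
      intro w
      apply Subtype.ext
      apply two_v
      have := congrArg (fun f : Module.End (ZMod 3) W => ((f w : W) : V)) hr
      simpa using this)
    (by
      apply LinearMap.ext
      intro w
      apply Subtype.ext
      exact hX w w.2)
    (hconj a' b' xa) (hconj b' d' xb) (hconj d' a' xd)
    (hcomm a' b' c1) (hcomm b' d' c2) (hcomm d' a' c3) (hsq a' b' sq1) (hsq b' d' sq2)
  intro w hw
  have := congrArg (fun u : (Module.End (ZMod 3) W)ˣ => (((u : Module.End (ZMod 3) W) ⟨w, hw⟩ : W) : V)) hmain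
  exact this

/-- Three eigenvectors with different characters. -/
theorem three_char {Y1 Y2 : V →+ V} {v₀ v₁ v₂ : V} {e₀ e₁ e₂ d₀ d₂ : ℤˣ} (h : v₀ + v₁ + v₂ = 0)
    (h10 : Y1 v₀ = (e₀ : ℤ) • v₀) (h11 : Y1 v₁ = (e₁ : ℤ) • v₁) (h12 : Y1 v₂ = (e₂ : ℤ) • v₂)
    (h20 : Y2 v₀ = (d₀ : ℤ) • v₀) (h22 : Y2 v₂ = (d₂ : ℤ) • v₂) (he : e₀ ≠ e₁) (hd : d₀ ≠ d₂) : v₀ = 0 := by
  have hY1 : (e₀ : ℤ) • v₀ + (e₁ : ℤ) • v₁ + (e₂ : ℤ) • v₂ = 0 := by
    have := congrArg Y1 h
    rwa [map_add, map_add, h10, h11, h12, map_zero] at this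
  have I : ((e₀ : ℤ) - e₁) • v₀ + ((e₂ : ℤ) - e₁) • v₂ = 0 := by
    linear_combination (norm := module) hY1 - (e₁ : ℤ) • h
  have hY2 : ((e₀ : ℤ) - e₁) • (d₀ : ℤ) • v₀ + ((e₂ : ℤ) - e₁) • (d₂ : ℤ) • v₂ = 0 := by
    have := congrArg Y2 I
    rwa [map_add, map_zsmul, map_zsmul, h20, h22, map_zero] at this
  have II : (((e₀ : ℤ) - e₁) * ((d₀ : ℤ) - d₂)) • v₀ = 0 := by
    linear_combination (norm := module) hY2 - (d₂ : ℤ) • I
  have h4 : (4 : ℤ) • v₀ = 0 := by
    rcases Int.units_eq_one_or e₀ with h1 | h1 <;> rcases Int.units_eq_one_or e₁ with h2 | h2 <;>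
    rcases Int.units_eq_one_or d₀ with h3 | h3 <;> rcases Int.units_eq_one_or d₂ with h4 | h4 <;>
    first
      | exact absurd (h1.trans h2.symm) he
      | exact absurd (h3.trans h4.symm) hd
      | (rw [h1, h2, h3, h4] at II
         simpa using II)
  have h5 := three_v v₀
  have e : (4 : ℤ) • v₀ = (v₀ + v₀ + v₀) + v₀ := by module
  rw [e, h5, zero_add] at h4
  exact h4

/-- A common eigenvector for a commuting family of involutions. -/
theorem exists_common [Finite H] (ρ : H →* Module.End (ZMod 3) V) (Y : Set H)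
    (hYc : ∀ y ∈ Y, ∀ y' ∈ Y, y * y' = y' * y) (hY2 : ∀ y ∈ Y, y * y = 1) {z₀ : H} (hz₀ : z₀ ∈ Y)
    (hz : ρ z₀ ≠ 1) :
    ∃ v₀ : V, v₀ ≠ 0 ∧ ρ z₀ v₀ = -v₀ ∧ ∀ y ∈ Y, ρ y v₀ = v₀ ∨ ρ y v₀ = -v₀ := by
  classical
  have hind : ∀ S : Finset H, (↑S ⊆ Y) → ∃ v : V, v ≠ 0 ∧ ρ z₀ v = -v ∧ ∀ y ∈ S, ρ y v = v ∨ ρ y v = -v := by
    intro S
    induction S using Finset.induction_on with
    | empty =>
      intro _
      obtain ⟨v₁, hv₁⟩ : ∃ v₁, ρ z₀ v₁ ≠ v₁ := by
        by_contra hcon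
        push Not at hcon
        exact hz (LinearMap.ext hcon)
      have hzz : ρ z₀ (ρ z₀ v₁) = v₁ := by
        rw [rho_mul, hY2 z₀ hz₀, map_one]; rfl
      refine ⟨v₁ - ρ z₀ v₁, ?_, ?_, by simp⟩
      · intro h
        exact hv₁ (sub_eq_zero.mp h).symm
      · rw [map_sub, hzz]
        abel
    | insert y S hy ih =>
      intro hS
      have hyY : y ∈ Y := hS (Finset.mem_insert_self y S)
      obtain ⟨v, hv0, hvz, hvS⟩ := ih (fun u hu => hS (Finset.mem_insert_of_mem hu))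
      have hyy : ρ y (ρ y v) = v := by
        rw [rho_mul, hY2 y hyY, map_one]; rfl
      have hcomm : ∀ s ∈ Y, ρ s (ρ y v) = ρ y (ρ s v) := by
        intro s hs
        rw [rho_mul, rho_mul, hYc s hs y hyY]
      have hS' : ∀ u ∈ S, u ∈ Y := fun u hu => hS (Finset.mem_insert_of_mem hu)
      by_cases h1 : v + ρ y v = 0
      · -- then `ρ y v = -v`
        have e : ρ y v = -v := by
          rw [eq_neg_iff_add_eq_zero, add_comm]; exact h1
        refine ⟨v, hv0, hvz, ?_⟩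
        intro u hu
        rcases Finset.mem_insert.mp hu with rfl | hu
        · exact Or.inr e
        · exact hvS u hu
      · refine ⟨v + ρ y v, h1, ?_, ?_⟩
        · rw [map_add, hcomm z₀ hz₀, hvz, map_neg]
          abel
        · intro u hu
          rcases Finset.mem_insert.mp hu with rfl | hu
          · left
            rw [map_add, hyy]
            abel
          · rcases hvS u hu with h | h
            · left
              rw [map_add, hcomm u (hS' u hu), h]
            · right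
              rw [map_add, hcomm u (hS' u hu), h, map_neg]
              abel
  haveI : Fintype H := Fintype.ofFinite H
  obtain ⟨v, hv0, hvz, hvS⟩ := hind (Y.toFinset) (by simp)
  exact ⟨v, hv0, hvz, fun y hy => hvS y (by simpa using hy)⟩

end Cfsg.Agent.Lib.QuadK
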