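import Mathlib
import Cfsg.Agent.Lib.QuadK.Module

/-!
# A quadratic element of order three acting on a 2-group

If `x` has order three, `(x - 1)² = 0` on a faithful module in characteristic three, `x` lies in the centre and in
the derived group of a 3-group `B` normalizing a 2-group `S`, and `[V, a, a, x] = 0` for `a ∈ B`, then `x` centralizes `S`.
-/

set_option autoImplicit false

namespace Cfsg.Agent.Lib.QuadK

open Subgroup
open scoped commutatorElement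

variable {H : Type*} [Group H] {V : Type*} [AddCommGroup V] [Module (ZMod 3) V]

/-- The structure of a minimal `x`-nontrivial subgroup. -/
structure TS (T F : Subgroup H) (x : H) : Prop where
  tx : ∀ t ∈ T, x * t * x⁻¹ ∈ T
  x3 : x ^ 3 = 1
  ft : F ≤ T
  sq : ∀ t ∈ T, t * t ∈ F
  cm : ∀ t ∈ T, ∀ s ∈ T, ⁅t, s⁆ ∈ F
  fx : ∀ f ∈ F, x * f * x⁻¹ = f
  fc : ∀ f ∈ F, ∀ t ∈ T, f * t = t * f
  gen : T ≤ closure {c | ∃ s ∈ T, c = s * (x * s * x⁻¹)⁻¹}

theorem eq_one_of_two_three {c : H} {k : ℕ} (h2 : c ^ 2 ^ k = 1) (h3 : c ^ 3 = 1) : c = 1 := by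
  have h1 : orderOf c ∣ 2 ^ k := orderOf_dvd_of_pow_eq_one h2
  have h4 : orderOf c ∣ 3 := orderOf_dvd_of_pow_eq_one h3
  have h5 : Nat.Coprime (2 ^ k) 3 := Nat.Coprime.pow_left k (by norm_num)
  have h6 : orderOf c ∣ 1 := by
    have := Nat.dvd_gcd h1 h4
    rwa [h5] at this
  exact orderOf_eq_one_iff.mp (Nat.dvd_one.mp h6)

/-- A minimal subgroup and its structure. -/
theorem exists_TS [Finite H] (B : Subgroup H) (x : H) (hxB : x ∈ B) (hxc : ∀ a ∈ B, x * a = a * x) (hx3 : x ^ 3 = 1)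
    (S : Subgroup H) (hS : IsPGroup 2 S) (hSB : ∀ a ∈ B, ∀ s ∈ S, a * s * a⁻¹ ∈ S)
    (hne : ∃ s ∈ S, x * s * x⁻¹ ≠ s) :
    ∃ T F : Subgroup H, T ≤ S ∧ TS T F x ∧ (∀ a ∈ B, ∀ s ∈ T, a * s * a⁻¹ ∈ T) ∧ ∃ s ∈ T, x * s * x⁻¹ ≠ s := by
  classical
  let P : Subgroup H → Prop := fun A => A ≤ S ∧ (∀ a ∈ B, ∀ s ∈ A, a * s * a⁻¹ ∈ A) ∧ ∃ s ∈ A, x * s * x⁻¹ ≠ s
  have hex : ∃ c, ∃ A, P A ∧ Nat.card A = c := ⟨_, S, ⟨le_rfl, hSB, hne⟩, rfl⟩
  obtain ⟨T, hTP, hTc⟩ := Nat.find_spec hex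
  obtain ⟨hTS, hTB, hTne⟩ := hTP
  have hmin : ∀ A : Subgroup H, A ≤ T → (∀ a ∈ B, ∀ s ∈ A, a * s * a⁻¹ ∈ A) → A ≠ T → ∀ g ∈ A, x * g * x⁻¹ = g := by
    intro A hA hAB hne' g hg
    by_contra hcon
    have hlt : Nat.card A < Nat.card T := by
      have h1 : A < T := lt_of_le_of_ne hA hne'
      exact Set.ncard_lt_ncard h1 (Set.toFinite _)
    rw [hTc] at hlt
    exact Nat.find_min hex hlt ⟨A, ⟨hA.trans hTS, hAB, g, hg, hcon⟩, rfl⟩
  have hT2 : IsPGroup 2 T := hS.to_le hTS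
  have hTx : ∀ t ∈ T, x * t * x⁻¹ ∈ T := hTB x hxB
  -- the squares
  let F : Subgroup H := closure {c | ∃ t ∈ T, c = t * t}
  have hFT : F ≤ T := by
    rw [closure_le]
    rintro _ ⟨t, ht, rfl⟩
    exact T.mul_mem ht ht
  have hsq : ∀ t ∈ T, t * t ∈ F := fun t ht => Subgroup.subset_closure ⟨t, ht, rfl⟩
  have hcm : ∀ t ∈ T, ∀ s ∈ T, ⁅t, s⁆ ∈ F := by
    intro t ht s hs
    have e : ⁅t, s⁆ = (t * t) * ((t⁻¹ * s) * (t⁻¹ * s)) * (s⁻¹ * s⁻¹) := by
      rw [commutatorElement_def]; group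
    rw [e]
    exact F.mul_mem (F.mul_mem (hsq t ht) (hsq _ (T.mul_mem (T.inv_mem ht) hs)))
      (hsq _ (T.inv_mem hs))
  have hconjF : ∀ g, (∀ t ∈ T, g * t * g⁻¹ ∈ T) → ∀ f ∈ F, g * f * g⁻¹ ∈ F := by
    intro g hg f hf
    induction hf using Subgroup.closure_induction with
    | mem c hc =>
      obtain ⟨t, ht, rfl⟩ := hc
      have e : g * (t * t) * g⁻¹ = (g * t * g⁻¹) * (g * t * g⁻¹) := by group
      rw [e]
      exact hsq _ (hg t ht)
    | one => simp [F.one_mem]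
    | mul a b _ _ iha ihb =>
      have e : g * (a * b) * g⁻¹ = (g * a * g⁻¹) * (g * b * g⁻¹) := by group
      rw [e]
      exact F.mul_mem iha ihb
    | inv a _ iha =>
      have e : g * a⁻¹ * g⁻¹ = (g * a * g⁻¹)⁻¹ := by group
      rw [e]
      exact F.inv_mem iha
  have hFne : F ≠ T := by
    intro hFe
    obtain ⟨s₀, hs₀, hs₀x⟩ := hTne
    have hnt : s₀ ≠ 1 := by
      rintro rfl
      simp at hs₀x
    obtain ⟨k, hk⟩ := IsPGroup.iff_card.mp hT2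
    have hk0 : k ≠ 0 := by
      rintro rfl
      rw [pow_zero, Subgroup.card_eq_one] at hk
      rw [hk] at hs₀
      exact hnt (Subgroup.mem_bot.mp hs₀)
    obtain ⟨k', rfl⟩ := Nat.exists_eq_succ_of_ne_zero hk0
    obtain ⟨K, hK⟩ := Sylow.exists_subgroup_card_pow_prime (G := T) 2 (n := k') (by
      rw [hk]
      exact pow_dvd_pow 2 (Nat.le_succ k'))
    have hidx : K.index = 2 := by
      have h1 := K.card_mul_index
      rw [hK, hk, pow_succ] at h1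
      exact Nat.eq_of_mul_eq_mul_left (by positivity) h1
    have hFK : F ≤ K.map T.subtype := by
      rw [closure_le]
      rintro _ ⟨t, ht, rfl⟩
      refine ⟨⟨t, ht⟩ * ⟨t, ht⟩, ?_, rfl⟩
      have := Subgroup.mul_self_mem_of_index_two hidx (⟨t, ht⟩ : T)
      exact this
    have htop : K = ⊤ := by
      rw [eq_top_iff]
      rintro ⟨t, ht⟩ _
      have h1 : t ∈ K.map T.subtype := hFK (hFe ▸ ht)
      obtain ⟨u, hu, hue⟩ := h1
      have : u = ⟨t, ht⟩ := Subtype.ext hue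
      rwa [← this]
    rw [htop, Subgroup.index_top] at hidx
    omega
  have hfx : ∀ f ∈ F, x * f * x⁻¹ = f := hmin F hFT (fun a ha f hf => hconjF a (hTB a ha) f hf) hFne
  -- the commutators generate
  let M : Subgroup H := closure {c | ∃ s ∈ T, c = s * (x * s * x⁻¹)⁻¹}
  have hMT : M ≤ T := by
    rw [closure_le]
    rintro _ ⟨s, hs, rfl⟩
    exact T.mul_mem hs (T.inv_mem (hTx s hs))
  have hMe : M = T := by
    by_contra hMne
    have hMB : ∀ a ∈ B, ∀ s ∈ M, a * s * a⁻¹ ∈ M := by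
      intro a ha s hs
      induction hs using Subgroup.closure_induction with
      | mem c hc =>
        obtain ⟨t, ht, rfl⟩ := hc
        apply Subgroup.subset_closure
        refine ⟨a * t * a⁻¹, hTB a ha t ht, ?_⟩
        have e : x * (a * t * a⁻¹) * x⁻¹ = a * (x * t * x⁻¹) * a⁻¹ := by
          have h1 := hxc a ha
          have h2 : x⁻¹ * a = a * x⁻¹ := by
            rw [inv_mul_eq_iff_eq_mul, ← mul_assoc, h1, mul_assoc, mul_inv_cancel, mul_one]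
          have h3 : a⁻¹ * x⁻¹ = x⁻¹ * a⁻¹ := by
            rw [← mul_inv_rev, ← mul_inv_rev, h1]
          calc x * (a * t * a⁻¹) * x⁻¹ = (x * a) * t * (a⁻¹ * x⁻¹) := by group
            _ = (a * x) * t * (x⁻¹ * a⁻¹) := by rw [h1, h3]
            _ = a * (x * t * x⁻¹) * a⁻¹ := by group
        rw [e]
        group
      | one => simp [M.one_mem]
      | mul u v _ _ ihu ihv =>
        have e : a * (u * v) * a⁻¹ = (a * u * a⁻¹) * (a * v * a⁻¹) := by group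
        rw [e]
        exact M.mul_mem ihu ihv
      | inv u _ ihu =>
        have e : a * u⁻¹ * a⁻¹ = (a * u * a⁻¹)⁻¹ := by group
        rw [e]
        exact M.inv_mem ihu
    have hMfix := hmin M hMT hMB hMne
    obtain ⟨s₀, hs₀, hs₀x⟩ := hTne
    apply hs₀x
    -- `c = s (s^x)⁻¹` is fixed
    obtain ⟨c, hc⟩ : ∃ c, c = s₀ * (x * s₀ * x⁻¹)⁻¹ := ⟨_, rfl⟩
    have hcM : c ∈ M := Subgroup.subset_closure ⟨s₀, hs₀, hc⟩
    have hcx : x * c * x⁻¹ = c := hMfix c hcM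
    have hcT : c ∈ T := hMT hcM
    have e1 : x * s₀ * x⁻¹ = c⁻¹ * s₀ := by rw [hc]; group
    have e2 : x * (x * s₀ * x⁻¹) * x⁻¹ = c⁻¹ * c⁻¹ * s₀ := by
      rw [e1]
      have h1 : x * c⁻¹ * x⁻¹ = c⁻¹ := by
        have : x * c⁻¹ * x⁻¹ = (x * c * x⁻¹)⁻¹ := by group
        rw [this, hcx]
      calc x * (c⁻¹ * s₀) * x⁻¹ = (x * c⁻¹ * x⁻¹) * (x * s₀ * x⁻¹) := by group
        _ = c⁻¹ * (c⁻¹ * s₀) := by rw [h1, e1]
        _ = c⁻¹ * c⁻¹ * s₀ := by group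
    have e3 : x * (x * (x * s₀ * x⁻¹) * x⁻¹) * x⁻¹ = c⁻¹ * c⁻¹ * c⁻¹ * s₀ := by
      rw [e2]
      have h1 : x * c⁻¹ * x⁻¹ = c⁻¹ := by
        have : x * c⁻¹ * x⁻¹ = (x * c * x⁻¹)⁻¹ := by group
        rw [this, hcx]
      calc x * (c⁻¹ * c⁻¹ * s₀) * x⁻¹ = (x * c⁻¹ * x⁻¹) * (x * c⁻¹ * x⁻¹) * (x * s₀ * x⁻¹) := by group
        _ = c⁻¹ * c⁻¹ * (c⁻¹ * s₀) := by rw [h1, e1]
        _ = c⁻¹ * c⁻¹ * c⁻¹ * s₀ := by group
    have hxxx : x * x * x = 1 := by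
      rw [← hx3, pow_succ, pow_two]
    have hxxx' : x⁻¹ * x⁻¹ * x⁻¹ = 1 := by
      have : (x * x * x)⁻¹ = 1 := by rw [hxxx, inv_one]
      rw [← this]; group
    have e4 : x * (x * (x * s₀ * x⁻¹) * x⁻¹) * x⁻¹ = s₀ := by
      calc x * (x * (x * s₀ * x⁻¹) * x⁻¹) * x⁻¹ = (x * x * x) * s₀ * (x⁻¹ * x⁻¹ * x⁻¹) := by group
        _ = s₀ := by rw [hxxx, hxxx']; group
    have hc3 : c⁻¹ * c⁻¹ * c⁻¹ = 1 := by
      rw [e4] at e3
      have := e3.symm
      rwa [mul_eq_right] at this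
    obtain ⟨k, hk⟩ := hT2 ⟨c, hcT⟩
    have hc2 : c ^ 2 ^ k = 1 := by
      have := congrArg Subtype.val hk
      simpa using this
    have hc33 : c ^ 3 = 1 := by
      have : (c⁻¹ * c⁻¹ * c⁻¹)⁻¹ = 1 := by rw [hc3, inv_one]
      rw [← this]; group
    have hc1 := eq_one_of_two_three hc2 hc33
    rw [e1, hc1]
    simp
  have hgen : T ≤ closure {c | ∃ s ∈ T, c = s * (x * s * x⁻¹)⁻¹} := hMe.ge
  have hfc : ∀ f ∈ F, ∀ t ∈ T, f * t = t * f := by
    intro f hf t ht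
    have hcl : ∀ c ∈ closure {c | ∃ s ∈ T, c = s * (x * s * x⁻¹)⁻¹}, f * c = c * f := by
      intro c hc
      induction hc using Subgroup.closure_induction with
      | mem c hc =>
        obtain ⟨s, hs, rfl⟩ := hc
        have hf' : s⁻¹ * f * s ∈ F := by
          have := hconjF s⁻¹ (fun u hu => by
            have h1 := T.mul_mem (T.mul_mem (T.inv_mem hs) hu) hs
            simpa using h1) f hf
          simpa using this
        have h1 : x * (s⁻¹ * f * s) = (s⁻¹ * f * s) * x := by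
          have := hfx _ hf'
          exact mul_inv_eq_iff_eq_mul.mp this
        have h2 : x * f = f * x := mul_inv_eq_iff_eq_mul.mp (hfx f hf)
        have h3 : f * x⁻¹ = x⁻¹ * f := by
          rw [eq_inv_mul_iff_mul_eq, ← mul_assoc, h2, mul_assoc, mul_inv_cancel, mul_one]
        calc f * (s * (x * s * x⁻¹)⁻¹) = s * ((s⁻¹ * f * s) * x) * s⁻¹ * x⁻¹ := by group
          _ = s * (x * (s⁻¹ * f * s)) * s⁻¹ * x⁻¹ := by rw [h1]
          _ = s * x * s⁻¹ * (f * x⁻¹) := by group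
          _ = s * x * s⁻¹ * (x⁻¹ * f) := by rw [h3]
          _ = s * (x * s * x⁻¹)⁻¹ * f := by group
      | one => simp
      | mul a b _ _ iha ihb =>
        rw [← mul_assoc, iha, mul_assoc, ihb, mul_assoc]
      | inv a _ iha =>
        rw [eq_inv_mul_iff_mul_eq, ← mul_assoc, ← iha, mul_assoc, mul_inv_cancel, mul_one]
    exact hcl t (hgen ht)
  exact ⟨T, F, hTS, ⟨hTx, hx3, hFT, hsq, hcm, hfx, hfc, hgen⟩, hTB, hTne⟩


namespace TS
variable {T F : Subgroup H} {x : H}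

theorem comm_left (h : TS T F x) {a b c : H} (ha : a ∈ T) (hb : b ∈ T) (hc : c ∈ T) : ⁅a * b, c⁆ = ⁅b, c⁆ * ⁅a, c⁆ := by
  have e : ⁅a * b, c⁆ = a * ⁅b, c⁆ * a⁻¹ * ⁅a, c⁆ := by
    simp only [commutatorElement_def]; group
  have e2 : a * ⁅b, c⁆ * a⁻¹ = ⁅b, c⁆ := by
    rw [mul_inv_eq_iff_eq_mul]
    exact (h.fc _ (h.cm b hb c hc) a ha).symm
  rw [e, e2]

theorem comm_right (h : TS T F x) {a b c : H} (ha : a ∈ T) (hb : b ∈ T) (hc : c ∈ T) : ⁅a, b * c⁆ = ⁅a, b⁆ * ⁅a, c⁆ := by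
  have e : ⁅a, b * c⁆ = ⁅a, b⁆ * (b * ⁅a, c⁆ * b⁻¹) := by
    simp only [commutatorElement_def]; group
  have e2 : b * ⁅a, c⁆ * b⁻¹ = ⁅a, c⁆ := by
    rw [mul_inv_eq_iff_eq_mul]
    exact (h.fc _ (h.cm a ha c hc) b hb).symm
  rw [e, e2]

theorem comm_x (h : TS T F x) {a b : H} (ha : a ∈ T) (hb : b ∈ T) : ⁅x * a * x⁻¹, x * b * x⁻¹⁆ = ⁅a, b⁆ := by
  have e : ⁅x * a * x⁻¹, x * b * x⁻¹⁆ = x * ⁅a, b⁆ * x⁻¹ := by
    simp only [commutatorElement_def]; group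
  rw [e, h.fx _ (h.cm a ha b hb)]

theorem twist3 (h : TS T F x) (t : H) : x * (x * (x * t * x⁻¹) * x⁻¹) * x⁻¹ = t := by
  have hxxx : x * x * x = 1 := by
    rw [← h.x3, pow_succ, pow_two]
  have hxxx' : x⁻¹ * x⁻¹ * x⁻¹ = 1 := by
    have : (x * x * x)⁻¹ = 1 := by rw [hxxx, inv_one]
    rw [← this]; group
  calc x * (x * (x * t * x⁻¹) * x⁻¹) * x⁻¹ = (x * x * x) * t * (x⁻¹ * x⁻¹ * x⁻¹) := by group
    _ = t := by rw [hxxx, hxxx']; group

theorem aniso_W (h : TS T F x) (ρ : H →* Module.End (ZMod 3) V) (W : Submodule (ZMod 3) V)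
    (hTW : ∀ t ∈ T, t ∈ stW ρ W) (hxW : x ∈ stW ρ W) (hX : ∀ w, w + ρ x w + ρ x (ρ x w) = 0)
    {t : H} (ht : t ∈ T) (hc : ∀ w ∈ W, ρ ⁅t, x * t * x⁻¹⁆ w = w) : ∀ w ∈ W, ρ t w = ρ (x * t * x⁻¹) w := by
  have hb := h.tx t ht
  have hd := h.tx _ hb
  have sq1 : t * t = (x * t * x⁻¹) * (x * t * x⁻¹) := by
    have e : (x * t * x⁻¹) * (x * t * x⁻¹) = x * (t * t) * x⁻¹ := by group
    rw [e, h.fx _ (h.sq t ht)]
  have sq2 : (x * t * x⁻¹) * (x * t * x⁻¹) = (x * (x * t * x⁻¹) * x⁻¹) * (x * (x * t * x⁻¹) * x⁻¹) := by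
    have e : (x * (x * t * x⁻¹) * x⁻¹) * (x * (x * t * x⁻¹) * x⁻¹) =
        x * ((x * t * x⁻¹) * (x * t * x⁻¹)) * x⁻¹ := by group
    rw [e, h.fx _ (h.sq _ hb)]
  refine klein_W ρ W t (x * t * x⁻¹) (x * (x * t * x⁻¹) * x⁻¹) x (hTW t ht) (hTW _ hb) (hTW _ hd) hxW
    (fun w _ => hX w) rfl rfl (h.twist3 t) sq1 sq2 hc ?_ ?_
  · rw [h.comm_x ht hb]
    exact hc
  · have e : ⁅x * (x * t * x⁻¹) * x⁻¹, t⁆ = ⁅t, x * t * x⁻¹⁆ := by
      have e1 := h.comm_x hb hd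
      rw [h.twist3 t] at e1
      exact e1.trans (h.comm_x ht hb)
    rw [e]
    exact hc

end TS


/-- **Lemma K.** -/
theorem lemmaK [Finite H] (ρ : H →* Module.End (ZMod 3) V) (hρ : Function.Injective ρ) (x : H) (B : Subgroup H)
    (hB : IsPGroup 3 B) (hxB : x ∈ ⁅B, B⁆) (hxc : ∀ a ∈ B, x * a = a * x) (hx3 : x ^ 3 = 1)
    (hN : (ρ x - 1) * (ρ x - 1) = 0)
    (hq : ∀ a ∈ B, (ρ x - 1) * ((ρ a - 1) * (ρ a - 1)) = 0)
    (S : Subgroup H) (hS : IsPGroup 2 S) (hSB : ∀ a ∈ B, ∀ s ∈ S, a * s * a⁻¹ ∈ S)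
    (hne : ∃ s ∈ S, x * s * x⁻¹ ≠ s) : False := by
  classical
  have hxBm : x ∈ B := by
    have : ⁅B, B⁆ ≤ B := Subgroup.commutator_le.mpr
      (fun a ha b hb => B.mul_mem (B.mul_mem (B.mul_mem ha hb) (B.inv_mem ha)) (B.inv_mem hb))
    exact this hxB
  obtain ⟨T, F, hTS, hts, hTB, hTne⟩ := exists_TS B x hxBm hxc hx3 S hS hSB hne
  have hX : ∀ w, w + ρ x w + ρ x (ρ x w) = 0 := by
    intro w
    have h1 : ρ x (ρ x w - w) - (ρ x w - w) = 0 := by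
      have := congrArg (fun f : Module.End (ZMod 3) V => f w) hN
      simpa using this
    rw [map_sub] at h1
    have h2 := three_v (ρ x w)
    have e : w + ρ x w + ρ x (ρ x w) = (ρ x (ρ x w) - ρ x w - (ρ x w - w)) + (ρ x w + ρ x w + ρ x w) := by abel
    rw [e, h1, h2, add_zero]
  let Y : Subgroup H := ⁅T, T⁆
  have hYF : Y ≤ F := Subgroup.commutator_le.mpr hts.cm
  have hYT : Y ≤ T := hYF.trans hts.ft
  have hYc : ∀ y ∈ Y, ∀ y' ∈ Y, y * y' = y' * y := fun y hy y' hy' => hts.fc y (hYF hy) y' (hYT hy')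
  have hYgen : Y = closure {g | ∃ t ∈ T, ∃ s ∈ T, ⁅t, s⁆ = g} := Subgroup.commutator_def T T
  have hY2 : ∀ y ∈ Y, y * y = 1 := by
    have hcl : ∀ c ∈ closure {g | ∃ t ∈ T, ∃ s ∈ T, ⁅t, s⁆ = g}, c ∈ Y ∧ c * c = 1 := by
      intro c hc
      induction hc using Subgroup.closure_induction with
      | mem c hc =>
        obtain ⟨t, ht, s, hs, rfl⟩ := hc
        refine ⟨Subgroup.commutator_mem_commutator ht hs, ?_⟩
        rw [← hts.comm_left ht ht hs, commutatorElement_def]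
        have h1 := hts.fc _ (hts.sq t ht) s hs
        rw [h1]
        group
      | one => exact ⟨Y.one_mem, by simp⟩
      | mul a b _ _ iha ihb =>
        refine ⟨Y.mul_mem iha.1 ihb.1, ?_⟩
        calc a * b * (a * b) = a * (b * a) * b := by group
          _ = a * (a * b) * b := by rw [hYc b ihb.1 a iha.1]
          _ = (a * a) * (b * b) := by group
          _ = 1 := by rw [iha.2, ihb.2, one_mul]
      | inv a _ iha =>
        refine ⟨Y.inv_mem iha.1, ?_⟩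
        calc a⁻¹ * a⁻¹ = (a * a)⁻¹ := by group
          _ = 1 := by rw [iha.2, inv_one]
    intro y hy
    exact (hcl y (hYgen ▸ hy)).2
  obtain ⟨s₀, hs₀, hs₀x⟩ := hTne
  by_cases hY : ∃ z₀ ∈ Y, z₀ ≠ 1
  swap
  · -- the abelian case
    push Not at hY
    have h1 := hts.aniso_W ρ ⊤ (fun _ _ => ⟨fun _ _ => trivial, fun _ _ => trivial⟩)
      ⟨fun _ _ => trivial, fun _ _ => trivial⟩ hX hs₀ (by
        intro w _
        rw [hY _ (Subgroup.commutator_mem_commutator hs₀ (hts.tx s₀ hs₀))]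
        simp)
    apply hs₀x
    apply hρ
    apply LinearMap.ext
    intro w
    exact (h1 w trivial).symm
  obtain ⟨z₀, hz₀, hz₀1⟩ := hY
  have hρz : ρ z₀ ≠ 1 := by
    intro h
    apply hz₀1
    apply hρ
    rw [h, map_one]
  obtain ⟨v₀, hv₀, hv₀z, hv₀Y⟩ := exists_common ρ (Y : Set H) hYc hY2 hz₀ hρz
  have hnev : v₀ ≠ -v₀ := by
    intro h
    apply hv₀
    apply two_v
    nth_rewrite 2 [h]
    simp
  let lam : H → ℤˣ := fun y => if ρ y v₀ = v₀ then 1 else -1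
  have hlamv : ∀ y ∈ Y, ρ y v₀ = ((lam y : ℤˣ) : ℤ) • v₀ := by
    intro y hy
    by_cases h : ρ y v₀ = v₀
    · simp only [lam, if_pos h]
      simpa using h
    · simp only [lam, if_neg h]
      have := (hv₀Y y hy).resolve_left h
      simpa using this
  have unit_inj : ∀ u u' : ℤˣ, ((u : ℤˣ) : ℤ) • v₀ = ((u' : ℤˣ) : ℤ) • v₀ → u = u' := by
    intro u u' h
    rcases Int.units_eq_one_or u with rfl | rfl <;> rcases Int.units_eq_one_or u' with rfl | rfl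
    · rfl
    · exact absurd (by simpa using h) hnev
    · exact absurd (by simpa using h.symm) hnev
    · rfl
  have lam_mul : ∀ y ∈ Y, ∀ y' ∈ Y, lam (y * y') = lam y * lam y' := by
    intro y hy y' hy'
    apply unit_inj
    rw [← hlamv _ (Y.mul_mem hy hy'), ← rho_mul, hlamv y' hy', map_zsmul, hlamv y hy, smul_smul,
      Units.val_mul, mul_comm]
  let W : Submodule (ZMod 3) V :=
    { carrier := {w | ∀ y ∈ Y, ρ y w = ((lam y : ℤˣ) : ℤ) • w}
      add_mem' := by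
        intro a b ha hb y hy
        rw [map_add, ha y hy, hb y hy, smul_add]
      zero_mem' := by
        intro y _
        simp
      smul_mem' := by
        intro c w hw y hy
        rw [map_smul, hw y hy, smul_comm] }
  have hW : ∀ w, w ∈ W ↔ ∀ y ∈ Y, ρ y w = ((lam y : ℤˣ) : ℤ) • w := fun w => Iff.rfl
  have hv₀W : v₀ ∈ W := (hW v₀).mpr hlamv
  have hWc : ∀ g : H, (∀ y ∈ Y, g * y = y * g) → ∀ w ∈ W, ρ g w ∈ W := by
    intro g hg w hw
    refine (hW _).mpr fun y hy => ?_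
    rw [rho_mul, ← hg y hy, ← rho_mul, (hW w).mp hw y hy, map_zsmul]
  have hTWc : ∀ t ∈ T, ∀ y ∈ Y, t * y = y * t := fun t ht y hy => (hts.fc y (hYF hy) t ht).symm
  have hTW : ∀ t ∈ T, t ∈ stW ρ W := fun t ht =>
    ⟨hWc t (hTWc t ht), hWc t⁻¹ (hTWc _ (T.inv_mem ht))⟩
  have hxcY : ∀ y ∈ Y, x * y = y * x := fun y hy => mul_inv_eq_iff_eq_mul.mp (hts.fx y (hYF hy))
  have hxcY' : ∀ y ∈ Y, x⁻¹ * y = y * x⁻¹ := by
    intro y hy
    rw [inv_mul_eq_iff_eq_mul, ← mul_assoc, hxcY y hy, mul_assoc, mul_inv_cancel, mul_one]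
  have hxW : x ∈ stW ρ W := ⟨hWc x hxcY, hWc x⁻¹ hxcY'⟩
  -- conjugation on `Y`
  have hYconj : ∀ g : H, (∀ t ∈ T, g * t * g⁻¹ ∈ T) → ∀ y ∈ Y, g * y * g⁻¹ ∈ Y := by
    intro g hg y hy
    have hle : Y ≤ Y.comap (MulAut.conj g).toMonoidHom := by
      apply Subgroup.commutator_le.mpr
      intro t ht s hs
      show g * ⁅t, s⁆ * g⁻¹ ∈ Y
      have e : g * ⁅t, s⁆ * g⁻¹ = ⁅g * t * g⁻¹, g * s * g⁻¹⁆ := by
        simp only [commutatorElement_def]; group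
      rw [e]
      exact Subgroup.commutator_mem_commutator (hg t ht) (hg s hs)
    exact hle hy
  have heig : ∀ g : H, (∀ y ∈ Y, g⁻¹ * y * g ∈ Y) → ∀ w ∈ W, ∀ y ∈ Y,
      ρ y (ρ g w) = ((lam (g⁻¹ * y * g) : ℤˣ) : ℤ) • ρ g w := by
    intro g hg w hw y hy
    have e : y * g = g * (g⁻¹ * y * g) := by group
    rw [rho_mul, e, ← rho_mul, (hW w).mp hw _ (hg y hy), map_zsmul]
  have hBY : ∀ a ∈ B, ∀ y ∈ Y, a⁻¹ * y * a ∈ Y := by
    intro a ha y hy
    have := hYconj a⁻¹ (hTB a⁻¹ (B.inv_mem ha)) y hy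
    simpa using this
  -- the group `B` fixes the character
  have hlamB : ∀ a ∈ B, ∀ y ∈ Y, lam (a⁻¹ * y * a) = lam y := by
    intro a ha y₁ hy₁
    by_contra hne₁
    have hne₂ : ∃ y₂ ∈ Y, lam ((a * a)⁻¹ * y₂ * (a * a)) ≠ lam y₂ := by
      by_contra hcon
      push Not at hcon
      have hpow : ∀ k : ℕ, (a * a) ^ k ∈ B ∧ ∀ y ∈ Y, lam (((a * a) ^ k)⁻¹ * y * (a * a) ^ k) = lam y := by
        intro k
        induction k with
        | zero => exact ⟨by rw [pow_zero]; exact B.one_mem, fun y _ => by simp⟩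
        | succ k ih =>
          refine ⟨B.pow_mem (B.mul_mem ha ha) _, fun y hy => ?_⟩
          have e : ((a * a) ^ (k + 1))⁻¹ * y * (a * a) ^ (k + 1) =
              (a * a)⁻¹ * (((a * a) ^ k)⁻¹ * y * (a * a) ^ k) * (a * a) := by
            rw [pow_succ]; group
          rw [e, hcon _ (hBY _ ih.1 y hy), ih.2 y hy]
      obtain ⟨k, hk⟩ := hB ⟨a, ha⟩
      have hk' : a ^ 3 ^ k = 1 := by
        have := congrArg Subtype.val hk
        simpa using this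
      have hodd : Odd (3 ^ k) := Odd.pow (by decide)
      obtain ⟨m, hm⟩ := hodd
      have hae : (a * a) ^ (m + 1) = a := by
        rw [← pow_two, ← pow_mul, show 2 * (m + 1) = 3 ^ k + 1 by omega, pow_succ, hk', one_mul]
      have := (hpow (m + 1)).2 y₁ hy₁
      rw [hae] at this
      exact hne₁ this
    obtain ⟨y₂, hy₂, hne₂⟩ := hne₂
    have hxfix : ∀ v ∈ W, ρ x v = v := by
      intro v hv
      have hv' : ρ x v - v ∈ W := W.sub_mem (hxW.1 v hv) hv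
      have hcxa : ∀ w, ρ x (ρ a w) = ρ a (ρ x w) := by
        intro w
        rw [rho_mul, rho_mul, hxc a ha]
      have hsum : (ρ x v - v) + ρ a (ρ x v - v) + ρ (a * a) (ρ x v - v) = 0 := by
        have h1 := congrArg (fun f : Module.End (ZMod 3) V => f v) (hq a ha)
        simp only [Module.End.mul_apply, LinearMap.sub_apply, Module.End.one_apply, LinearMap.zero_apply,
          map_sub, hcxa] at h1
        have e1 : ρ (a * a) (ρ x v - v) = ρ a (ρ a (ρ x v)) - ρ a (ρ a v) := by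
          rw [← rho_mul]
          simp only [map_sub]
        have h3 := three_v (ρ a (ρ x v) - ρ a v)
        rw [e1, map_sub]
        have e : (ρ x v - v) + (ρ a (ρ x v) - ρ a v) + (ρ a (ρ a (ρ x v)) - ρ a (ρ a v)) =
            (ρ a (ρ a (ρ x v)) - ρ a (ρ a v) - (ρ a (ρ x v) - ρ a v) -
                (ρ a (ρ x v) - ρ a v - (ρ x v - v)))
              + ((ρ a (ρ x v) - ρ a v) + (ρ a (ρ x v) - ρ a v) + (ρ a (ρ x v) - ρ a v)) := by abel
        rw [e, h3, add_zero]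
        exact h1
      have hg1 : ∀ y ∈ Y, a⁻¹ * y * a ∈ Y := hBY a ha
      have hg2 : ∀ y ∈ Y, (a * a)⁻¹ * y * (a * a) ∈ Y := hBY _ (B.mul_mem ha ha)
      have hres := three_char (Y1 := (ρ y₁).toAddMonoidHom) (Y2 := (ρ y₂).toAddMonoidHom) hsum
        ((hW _).mp hv' y₁ hy₁) (heig a hg1 _ hv' y₁ hy₁) (heig (a * a) hg2 _ hv' y₁ hy₁)
        ((hW _).mp hv' y₂ hy₂) (heig (a * a) hg2 _ hv' y₂ hy₂) (Ne.symm hne₁) (Ne.symm hne₂)
      exact sub_eq_zero.mp hres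
    -- then `T` acts trivially on `W`
    have hxinv : ∀ v ∈ W, ρ x⁻¹ v = v := by
      intro v hv
      have h1 := hxfix v hv
      calc ρ x⁻¹ v = ρ x⁻¹ (ρ x v) := by rw [h1]
        _ = v := by rw [rho_mul]; simp
    have hTtriv : ∀ c ∈ closure {c | ∃ s ∈ T, c = s * (x * s * x⁻¹)⁻¹}, ∀ w ∈ W, ρ c w = w := by
      intro c hc
      induction hc using Subgroup.closure_induction with
      | mem c hc =>
        obtain ⟨s, hs, rfl⟩ := hc
        intro w hw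
        have e : s * (x * s * x⁻¹)⁻¹ = s * x * s⁻¹ * x⁻¹ := by group
        rw [e, ← rho_mul, hxinv w hw, ← rho_mul, ← rho_mul, hxfix _ ((hTW s hs).2 w hw), rho_mul]
        simp
      | one => intro w _; simp
      | mul a b _ _ iha ihb =>
        intro w hw
        rw [← rho_mul, ihb w hw, iha w hw]
      | inv a _ iha =>
        intro w hw
        calc ρ a⁻¹ w = ρ a⁻¹ (ρ a w) := by rw [iha w hw]
          _ = w := by rw [rho_mul]; simp
    have h1 := hTtriv z₀ (hts.gen (hYT hz₀)) v₀ hv₀W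
    rw [hv₀z] at h1
    exact hnev h1.symm
  -- the form
  have hlam1 : lam 1 = 1 := by
    simp [lam]
  have hbeta := beta_trivial T B x (fun a b => lam ⁅a, b⁆) hts.tx hx3
    (by
      intro a ha b hb c hc
      show lam ⁅a * b, c⁆ = lam ⁅a, c⁆ * lam ⁅b, c⁆
      rw [hts.comm_left ha hb hc, lam_mul _ (Subgroup.commutator_mem_commutator hb hc) _
        (Subgroup.commutator_mem_commutator ha hc), mul_comm])
    (by
      intro a ha b hb c hc
      show lam ⁅a, b * c⁆ = lam ⁅a, b⁆ * lam ⁅a, c⁆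
      rw [hts.comm_right ha hb hc, lam_mul _ (Subgroup.commutator_mem_commutator ha hb) _
        (Subgroup.commutator_mem_commutator ha hc)])
    (by
      intro a _
      show lam ⁅a, a⁆ = 1
      rw [commutatorElement_self, hlam1])
    (by
      intro a ha b hb
      show lam ⁅x * a * x⁻¹, x * b * x⁻¹⁆ = lam ⁅a, b⁆
      rw [hts.comm_x ha hb])
    hts.gen
    (by
      intro t ht hq1 s hs
      show lam ⁅x * t * x⁻¹, s⁆ = lam ⁅t, s⁆
      have hq1' : lam ⁅t, x * t * x⁻¹⁆ = 1 := hq1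
      have hb := hts.tx t ht
      have hc : ∀ w ∈ W, ρ ⁅t, x * t * x⁻¹⁆ w = w := by
        intro w hw
        rw [(hW w).mp hw _ (Subgroup.commutator_mem_commutator ht hb), hq1']
        simp
      have hE := hts.aniso_W ρ W hTW hxW hX ht hc
      apply unit_inj
      rw [← hlamv _ (Subgroup.commutator_mem_commutator hb hs),
        ← hlamv _ (Subgroup.commutator_mem_commutator ht hs)]
      obtain ⟨w₁, hw₁⟩ : ∃ w₁, w₁ = ρ s⁻¹ v₀ := ⟨_, rfl⟩
      have hw₁W : w₁ ∈ W := hw₁ ▸ (hTW s hs).2 v₀ hv₀W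
      obtain ⟨w₂, hw₂⟩ : ∃ w₂, w₂ = ρ t⁻¹ w₁ := ⟨_, rfl⟩
      have hw₂W : w₂ ∈ W := hw₂ ▸ (hTW t ht).2 w₁ hw₁W
      have h1 : ρ (x * t * x⁻¹)⁻¹ w₁ = w₂ := by
        have h2 : ρ (x * t * x⁻¹) w₂ = w₁ := by
          rw [← hE w₂ hw₂W, hw₂, rho_mul]
          simp
        calc ρ (x * t * x⁻¹)⁻¹ w₁ = ρ (x * t * x⁻¹)⁻¹ (ρ (x * t * x⁻¹) w₂) := by rw [h2]
          _ = w₂ := by rw [rho_mul]; simp
      have e1 : ⁅x * t * x⁻¹, s⁆ = (x * t * x⁻¹) * s * (x * t * x⁻¹)⁻¹ * s⁻¹ := rfl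
      have e2 : ⁅t, s⁆ = t * s * t⁻¹ * s⁻¹ := rfl
      rw [e1, e2, ← rho_mul, ← hw₁, ← rho_mul, h1, ← rho_mul, ← hE _ ((hTW s hs).1 w₂ hw₂W),
        ← rho_mul, ← hw₁, ← rho_mul, ← hw₂, ← rho_mul])
    hTB
    (by
      intro a ha t ht s hs
      show lam ⁅a * t * a⁻¹, a * s * a⁻¹⁆ = lam ⁅t, s⁆
      have e : ⁅a * t * a⁻¹, a * s * a⁻¹⁆ = (a⁻¹)⁻¹ * ⁅t, s⁆ * a⁻¹ := by
        simp only [commutatorElement_def]; group
      rw [e]
      exact hlamB a⁻¹ (B.inv_mem ha) _ (Subgroup.commutator_mem_commutator ht hs))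
    hxB hxc
  -- conclusion
  have hall : ∀ c ∈ closure {g | ∃ t ∈ T, ∃ s ∈ T, ⁅t, s⁆ = g}, c ∈ Y ∧ lam c = 1 := by
    intro c hc
    induction hc using Subgroup.closure_induction with
    | mem c hc =>
      obtain ⟨t, ht, s, hs, rfl⟩ := hc
      exact ⟨Subgroup.commutator_mem_commutator ht hs, hbeta t ht s hs⟩
    | one => exact ⟨Y.one_mem, hlam1⟩
    | mul a b _ _ iha ihb =>
      refine ⟨Y.mul_mem iha.1 ihb.1, ?_⟩
      rw [lam_mul _ iha.1 _ ihb.1, iha.2, ihb.2, one_mul]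
    | inv a _ iha =>
      refine ⟨Y.inv_mem iha.1, ?_⟩
      have h1 := lam_mul _ iha.1 _ (Y.inv_mem iha.1)
      rw [mul_inv_cancel, hlam1, iha.2, one_mul] at h1
      exact h1.symm
  have hz1 := (hall z₀ (hYgen ▸ hz₀)).2
  have hz2 := hlamv z₀ hz₀
  rw [hz1, hv₀z] at hz2
  apply hnev
  simpa using hz2.symm

end Cfsg.Agent.Lib.QuadK
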