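import Mathlib
import Cfsg.Agent.Lib.QuadK.Main
import Cfsg.Agent.Lib.HHB.GroupRed

/-!
# Quadratic elements in `p`-soluble groups: the reduction to the prime three and a 2-group
-/

set_option autoImplicit false

namespace Cfsg.Agent.Lib.QuadK

open Subgroup Cfsg Cfsg.Agent.Lib.Core
open scoped TensorProduct commutatorElement
open Cfsg.Agent.Lib.HHB Cfsg.Agent.Lib.OddLocal Cfsg.Agent.Lib.PGroup.HH

variable {H : Type*} [Group H] [Finite H]

/-- Theorem B for a quadratic element normalizing a `q`-group. -/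
theorem hh_quad {p q : ℕ} [hpF : Fact p.Prime] (hp2 : p ≠ 2) (hq : q.Prime) (hqp : q ≠ p)
    {V : Type*} [AddCommGroup V] [Module (ZMod p) V] [Finite V]
    (ρ : H →* Module.End (ZMod p) V) (hρ : Function.Injective ρ) (x : H) (hx : x ^ p = 1)
    (S : Subgroup H) (hS : IsPGroup q S) (hSx : ∀ g ∈ S, x * g * x⁻¹ ∈ S) (hne : ∃ g ∈ S, x * g * x⁻¹ ≠ g)
    (hN : (ρ x - 1) * (ρ x - 1) = 0) : p = 3 ∧ q = 2 := by
  classical
  have hp : p.Prime := Fact.out
  obtain ⟨Q, hQS, hQx, hQy, hQmin⟩ := exists_min_qsub x x S hSx hne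
  have hQq : IsPGroup q Q := hS.to_le hQS
  haveI hqF : Fact q.Prime := ⟨hq⟩
  let σ : Q ≃* Q := conjOn Q x hQx
  have hit : ∀ (i : ℕ) (g : Q), ((σ^[i] g : Q) : H) = x ^ i * g * (x ^ i)⁻¹ := conjOn_iter Q x hQx
  obtain ⟨h1, -, h3, -⟩ := min_struct hq hp hQq hqp.symm σ (k := 1)
    (by
      intro g
      apply Subtype.ext
      rw [hit, one_mul, hx]
      simp)
    (by
      obtain ⟨g, hg, hgy⟩ := hQy
      refine ⟨⟨g, hg⟩, fun h => hgy ?_⟩
      have := congrArg Subtype.val h
      rw [hit, pow_one] at this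
      exact this)
    (by
      intro A hA hAne a ha
      apply Subtype.ext
      rw [hit, pow_one]
      refine hQmin (A.map Q.subtype) ?_ ?_ ?_ (a : H) ⟨a, ha, rfl⟩
      · rintro _ ⟨b, -, rfl⟩
        exact b.2
      · rintro _ ⟨b, hb, rfl⟩
        exact ⟨σ b, hA b hb, rfl⟩
      · intro h
        apply hAne
        rw [eq_top_iff]
        intro b _
        have h5 : (b : H) ∈ A.map Q.subtype := by rw [h]; exact b.2
        obtain ⟨c, hc, e⟩ := h5
        have : c = b := Subtype.ext e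
        rwa [← this])
  have hQP : ∀ g ∈ Q, x * g * x⁻¹ = g → ∀ h ∈ Q, g * h = h * g := by
    intro g hg hgy k hk
    have h4 := h3 ⟨g, hg⟩ (by
      have : (⟨g, hg⟩ : Q)⁻¹ * σ^[1] ⟨g, hg⟩ = 1 := by
        apply Subtype.ext
        rw [Subgroup.coe_mul, hit]
        simp only [Subgroup.coe_inv, Subgroup.coe_one, pow_one]
        rw [hgy]
        simp
      rw [this]
      exact one_mem _)
    have h5 := h1 _ h4 ⟨k, hk⟩
    exact congrArg Subtype.val h5
  -- the module is nontrivial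
  haveI hVnt : Nontrivial V := by
    obtain ⟨g, hg, hgy⟩ := hQy
    have hg1 : ρ g ≠ 1 := by
      intro h
      apply hgy
      have : g = 1 := hρ (by rw [h, map_one])
      rw [this]
      simp
    obtain ⟨v, hv⟩ : ∃ v, ρ g v ≠ v := by
      by_contra hcon
      push Not at hcon
      exact hg1 (LinearMap.ext hcon)
    by_contra hcon
    rw [not_nontrivial_iff_subsingleton] at hcon
    exact hv (Subsingleton.elim _ _)
  haveI : Module.Finite (ZMod p) V := Module.Finite.of_finite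
  -- the base change
  let K := AlgebraicClosure (ZMod p)
  let W := K ⊗[ZMod p] V
  let bc : Module.End (ZMod p) V →ₐ[ZMod p] Module.End K W := Module.End.baseChangeHom _ _ _
  have hbcinj : Function.Injective bc := LinearMap.baseChangeHom_injective (ZMod p) V K
  haveI : Nontrivial W := by
    by_contra hcon
    rw [not_nontrivial_iff_subsingleton] at hcon
    have h1 : bc 0 = bc 1 := by
      apply LinearMap.ext
      intro v
      exact Subsingleton.elim _ _
    exact zero_ne_one (hbcinj h1)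
  letI : Fintype Q := Fintype.ofFinite _
  let ρ' : Q →* Module.End K W := (bc.toRingHom.toMonoidHom).comp (ρ.comp Q.subtype)
  have hρ' : ∀ g : Q, ρ' g = bc (ρ (g : H)) := fun g => rfl
  have hρinj : Function.Injective ρ' := by
    intro a b hab
    exact Subtype.ext (hρ (hbcinj hab))
  let X : Module.End K W := bc (ρ x)
  let Y : Module.End K W := bc (ρ x⁻¹)
  have hXY : X * Y = 1 := by
    show bc (ρ x) * bc (ρ x⁻¹) = 1
    rw [← map_mul, ← map_mul, mul_inv_cancel, map_one, map_one]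
  have hYX : Y * X = 1 := by
    show bc (ρ x⁻¹) * bc (ρ x) = 1
    rw [← map_mul, ← map_mul, inv_mul_cancel, map_one, map_one]
  let τ : MulAut Q := conjOn Q x hQx
  have hτit : ∀ (i : ℕ) (g : Q), (((τ ^ i) g : Q) : H) = x ^ i * g * (x ^ i)⁻¹ := by
    intro i g
    rw [mulAut_pow_apply]
    exact conjOn_iter Q x hQx i g
  have hτn : τ ^ p ^ 1 = 1 := by
    ext g
    rw [hτit, pow_one, hx]
    simp
  have hτ : ∀ g, X * ρ' g * Y = ρ' (τ g) := by
    intro g
    rw [hρ']
    show bc (ρ x) * bc (ρ (g : H)) * bc (ρ x⁻¹) = bc (ρ (((τ g : Q) : H)))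
    rw [← map_mul, ← map_mul, ← map_mul, ← map_mul]
    rfl
  have hXn : X ^ p ^ 1 = 1 := by
    show bc (ρ x) ^ p ^ 1 = 1
    rw [← map_pow, ← map_pow, pow_one, hx, map_one, map_one]
  have hP : ∀ g, (τ ^ p ^ (1 - 1)) g = g → ∀ h, g * h = h * g := by
    intro g hg h
    have e : τ ^ p ^ (1 - 1) = τ := by simp
    rw [e] at hg
    have h1 : ((τ g : Q) : H) = x * g * x⁻¹ := rfl
    rw [hg] at h1
    exact Subtype.ext (hQP g g.2 h1.symm h h.2)
  have hnt : ∃ g, ρ' ((τ ^ p ^ (1 - 1)) g) ≠ ρ' g := by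
    obtain ⟨g, hg, hgy⟩ := hQy
    refine ⟨⟨g, hg⟩, fun h => hgy ?_⟩
    have h1 := hρinj h
    have e : τ ^ p ^ (1 - 1) = τ := by simp
    rw [e] at h1
    exact congrArg Subtype.val h1
  have hXsub : X - 1 = bc (ρ x - 1) := by
    rw [map_sub, map_one]
  have hs2 : (X - 1) ^ 2 = 0 := by
    rw [hXsub, ← map_pow, pow_two, hN, map_zero]
  have hqK : (q : K) ≠ 0 := by
    intro h0
    rw [CharP.cast_eq_zero_iff K p q] at h0
    exact hqp ((Nat.prime_dvd_prime_iff_eq hp hq).mp h0).symm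
  have hex : ∃ s, (X - 1) ^ s = 0 := ⟨2, hs2⟩
  have hs := Nat.find_spec hex
  have hmin : ∀ k < Nat.find hex, (X - 1) ^ k ≠ 0 := fun k hk => Nat.find_min hex hk
  have hle : Nat.find hex ≤ 2 := Nat.find_min' hex hs2
  have hp3 : 3 ≤ p := by
    have := hp.two_le
    omega
  rcases hhb_core (p := p) (q := q) hQq hqK ρ' X Y hXY hYX τ (n := 1) Nat.one_pos hXn hτn hτ hP hnt
    (Nat.find hex) hs hmin with h | h
  · rw [pow_one] at h
    omega
  · obtain ⟨n₀, b, h1, h2, h3, h4, -, h6⟩ := h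
    have hn₀ : n₀ = 1 := le_antisymm h2 h1
    subst hn₀
    simp only [pow_one, Nat.sub_self, pow_zero, one_mul] at h4 h6
    have hp3' : p = 3 := by omega
    subst hp3'
    refine ⟨rfl, ?_⟩
    have h7 : q ^ b = 2 := by omega
    have h8 : q ∣ 2 := by
      rw [← h7]
      exact dvd_pow_self q (by omega)
    exact (Nat.prime_dvd_prime_iff_eq hq Nat.prime_two).mp h8

/-- **The core.** -/
theorem core_thm {p : ℕ} [hpF : Fact p.Prime] (hp2 : p ≠ 2) (hstep : Cfsg.Agent.Lib.PSolv.PStep p H) (hO : pCore p H = ⊥)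
    {V : Type*} [AddCommGroup V] [Module (ZMod p) V] [Finite V]
    (ρ : H →* Module.End (ZMod p) V) (hρ : Function.Injective ρ) (x : H) (hx : x ^ p = 1) (hx1 : x ≠ 1)
    (B : Subgroup H) (hB : IsPGroup p B) (hxB : x ∈ ⁅B, B⁆) (hxc : ∀ a ∈ B, x * a = a * x)
    (hN : (ρ x - 1) * (ρ x - 1) = 0) (hq : ∀ a ∈ B, (ρ x - 1) * ((ρ a - 1) * (ρ a - 1)) = 0) : False := by
  classical
  have hp : p.Prime := Fact.out
  set U := pPrimeCore p H with hU
  haveI hUn : U.Normal := pPrimeCore_normal p H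
  have hUc : (Nat.card U).Coprime p := pPrimeCore_coprime p H
  have hzU : ¬ U ≤ centralizer ({x} : Set H) := by
    intro hle
    have hzc : x ∈ centralizer (U : Set H) := by
      rw [Subgroup.mem_centralizer_iff]
      intro u hu
      have := hle hu
      rw [Subgroup.mem_centralizer_singleton_iff] at this
      exact this
    have hzU := Cfsg.Agent.Lib.PGroup.AxLemma.centralizer_pPrimeCore_le hstep hO hzc
    apply hx1
    have h1 : x ^ Nat.card U = 1 := by
      have := congrArg Subtype.val (pow_card_eq_one' (x := (⟨x, hzU⟩ : U)))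
      exact this
    exact Cfsg.Agent.Lib.FStar.eq_one_of_pow_of_coprime (p := p) (n := 1) (by simpa using hx) h1 hUc
  have hAU : B ≤ normalizer (U : Set H) := by
    rw [Subgroup.normalizer_eq_top_iff.mpr hUn]
    exact le_top
  have hcopA : (Nat.card B).Coprime (Nat.card U) := by
    obtain ⟨k, hk⟩ := IsPGroup.iff_card.mp hB
    rw [hk]
    exact Nat.Coprime.pow_left k hUc.symm
  have hsol : Group.IsSolvable B ∨ Group.IsSolvable U := by
    haveI : Group.IsNilpotent B := hB.isNilpotent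
    exact Or.inl inferInstance
  have hex' : ∃ (q : ℕ) (_ : Fact q.Prime) (Q : Sylow q U),
      B ≤ normalizer (((Q : Subgroup U).map U.subtype : Subgroup H) : Set H) ∧
        ¬ (Q : Subgroup U).map U.subtype ≤ centralizer ({x} : Set H) := by
    by_contra hno
    push Not at hno
    exact hzU (Cfsg.Agent.Lib.PGroup.AxLemma.le_of_invariant_sylows hAU hcopA hsol
      (fun q inst P hP => hno q inst P hP))
  obtain ⟨q, hqf, Q, hQn, hQc⟩ := hex'
  have hq' : q.Prime := Fact.out
  set Sb : Subgroup H := (Q : Subgroup U).map U.subtype with hSb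
  have hSbp : IsPGroup q Sb := Q.isPGroup'.map U.subtype
  have hqp : q ≠ p := by
    intro e'
    subst e'
    apply hQc
    rintro _ ⟨u, hu, rfl⟩
    obtain ⟨k, hk⟩ := Q.isPGroup' ⟨u, hu⟩
    have h1 : ((u : H)) ^ q ^ k = 1 := by
      have := congrArg (fun t => ((t : Q) : U)) hk
      have := congrArg Subtype.val this
      simpa using this
    have h2 : (u : H) ^ Nat.card U = 1 := by
      have := congrArg Subtype.val (pow_card_eq_one' (x := u))
      exact this
    have h3 := Cfsg.Agent.Lib.FStar.eq_one_of_pow_of_coprime (p := q) h1 h2 hUc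
    show (u : H) ∈ _
    rw [h3]
    exact Subgroup.one_mem _
  have hSB : ∀ a ∈ B, ∀ s ∈ Sb, a * s * a⁻¹ ∈ Sb := fun a ha s hs =>
    (Subgroup.mem_normalizer_iff.mp (hQn ha) s).mp hs
  have hxBm : x ∈ B := by
    have : ⁅B, B⁆ ≤ B := Subgroup.commutator_le.mpr
      (fun a ha b hb => B.mul_mem (B.mul_mem (B.mul_mem ha hb) (B.inv_mem ha)) (B.inv_mem hb))
    exact this hxB
  obtain ⟨sb, hsb, hsbc⟩ := SetLike.not_le_iff_exists.mp hQc
  rw [Subgroup.mem_centralizer_singleton_iff] at hsbc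
  have hne : ∃ g ∈ Sb, x * g * x⁻¹ ≠ g := by
    refine ⟨sb, hsb, fun h => hsbc ?_⟩
    calc sb * x = (x * sb * x⁻¹) * x := by rw [h]
      _ = x * sb := by group
  obtain ⟨rfl, rfl⟩ := hh_quad hp2 hq' hqp ρ hρ x hx Sb hSbp (hSB x hxBm) hne hN
  exact lemmaK ρ hρ x B hB hxB hxc hx hN hq Sb hSbp hSB hne

end Cfsg.Agent.Lib.QuadK
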